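import Cfsg.Agent.H775.EPS.Base
import Cfsg.Agent.H775.EPS.SimpleCount
import Cfsg.Agent.H775.EPS.Elab

/-!
# S3499: the index bound with numerical parameters (helper775)
-/

set_option autoImplicit false

namespace Cfsg.Agent.H775.EPS

open Subgroup Cfsg.Agent.H284 Cfsg.Agent.H173.EP Cfsg.Agent.H59.EP

universe u

/-- **The engine**: `N` simple nonabelian, normal in `A`, `C_A(N) = 1`, `|A| ≤ 2 |N|`; `i2` the number of involutions of
`N`, `s2`, `s3`, `sp` the numbers of elementary abelian 2-, 3-, `p`-subgroups (`p ∈ P`), `ss` the number of nonabelian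
simple subgroups of `N`. -/
theorem index_le_gen {Q : Type u} [Group Q] [Finite Q] (hs : IsSimpleGroup Q) {A : Subgroup Q} {Γ : Subgroup (MulAut Q)}
    (h : EPT A Γ) {N : Subgroup Q} (hNA : N ≤ A) (hN : ∀ a ∈ A, ∀ n ∈ N, a * n * a⁻¹ ∈ N) (hNs : IsSimpleGroup N)
    (hNc : ¬ ∀ a ∈ N, ∀ b ∈ N, a * b = b * a) (hC : ∀ a ∈ A, (∀ n ∈ N, a * n = n * a) → a = 1)
    (hcard : Nat.card A ≤ 2 * Nat.card N)
    (hE : ∀ (E : Subgroup N) (τ : MulAut N), E ≠ ⊥ → ⁅E, E⁆ = E → E ⊓ E.map τ.toMonoidHom = ⊥ →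
      (∀ a ∈ E, ∀ b ∈ E, a * τ b = τ b * a) → False)
    (hev : ∀ K ∈ SS N, 2 ∣ Nat.card K) (P : Finset ℕ) (hP : ∀ s : ℕ, s.Prime → s ∣ Nat.card N → s = 2 ∨ s = 3 ∨ s ∈ P)
    {i2 s2 s3 sp ss a : ℕ} (h2 : {z : N | orderOf z = 2}.ncard ≤ i2) (hS2 : (SE N 2).ncard ≤ s2)
    (hS3 : (SE N 3).ncard ≤ s3) (hSp : ∑ p ∈ P, (SE N p).ncard ≤ sp) (hSS : (SS N).ncard ≤ ss) (hA : Nat.card A ≤ a) :
    A.index ≤ 1 + i2 * (s2 + s3 + sp + ss) + (s3 + sp) * (2 * (a / 6)) := by
  classical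
  have hab := noAb_of_soc hNA hN hNs hNc hC
  have h6 : ∀ x, x ∉ A → 6 ≤ Nat.card (A ⊓ cj x A : Subgroup Q) := fun x hx => EPT.six_le h hab hx
  obtain ⟨hr, hr'⟩ := counts h hNA hN hNs hC hcard h6 hE hev P hP
  have hIn : {t : Q | t ∈ N ∧ orderOf t = 2}.ncard ≤ i2 := by
    have e1 : {t : Q | t ∈ N ∧ orderOf t = 2} = Subtype.val '' {z : N | orderOf z = 2} := by
      ext t
      constructor
      · rintro ⟨h1, h2⟩
        exact ⟨⟨t, h1⟩, by rw [Set.mem_ofPred_eq, Subgroup.orderOf_mk, h2], rfl⟩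
      · rintro ⟨z, hz, rfl⟩
        exact ⟨z.2, by rw [Subgroup.orderOf_coe]; exact hz⟩
    rw [e1, Set.ncard_image_of_injective _ Subtype.val_injective]
    exact h2
  have hfin := index_le_hit hs h (μ := 6) (by norm_num) h6 {t : Q | t ∈ N ∧ orderOf t = 2} (by
    rintro t ⟨-, ht⟩ rfl
    rw [orderOf_one] at ht
    norm_num at ht)
  refine hfin.trans (Nat.add_le_add (Nat.add_le_add_left (Nat.mul_le_mul hIn (hr.trans ?_)) 1)
    (Nat.mul_le_mul (hr'.trans (Nat.add_le_add hS3 hSp)) ?_))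
  · exact Nat.add_le_add (Nat.add_le_add (Nat.add_le_add hS2 hS3) hSp) hSS
  · exact Nat.mul_le_mul_left 2 (Nat.div_le_div_right hA)

/-- no commuting pairs if `p ^ 2 ∤ |B|` for `p ≥ 5` -/
theorem no_E_of_sq {B : Type*} [Group B] [Finite B] (hsq : ∀ p : ℕ, p.Prime → 5 ≤ p → ¬ p ^ 2 ∣ Nat.card B)
    {E : Subgroup B} (τ : MulAut B) (hne : E ≠ ⊥) (hper : ⁅E, E⁆ = E) (hdis : E ⊓ E.map τ.toMonoidHom = ⊥)
    (hc : ∀ a ∈ E, ∀ b ∈ E, a * τ b = τ b * a) : False := by
  classical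
  have hnt : Nontrivial E := (Subgroup.nontrivial_iff_ne_bot E).2 hne
  have hperE : commutator E = ⊤ := by
    have h1 := Subgroup.map_subtype_commutator E
    rw [hper] at h1
    apply Subgroup.map_injective E.subtype_injective
    rw [h1, ← MonoidHom.range_eq_map, E.range_subtype]
  have hns : ¬ Group.IsSolvable E := by
    intro hsol
    have h1 : commutator E < ⊤ := Group.IsSolvable.commutator_lt_top_of_nontrivial E
    exact h1.ne hperE
  obtain ⟨p, hp, hp5, hpE⟩ := exists_prime_ge_five hns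
  apply hsq p hp hp5
  have hcm : ∀ (a : E) (b : E.map τ.toMonoidHom), Commute (E.subtype a) ((E.map τ.toMonoidHom).subtype b) := by
    rintro ⟨a, ha⟩ ⟨_, b, hb, rfl⟩
    exact hc a ha b hb
  have hinj : Function.Injective (MonoidHom.noncommCoprod E.subtype (E.map τ.toMonoidHom).subtype hcm) := by
    rw [MonoidHom.noncommCoprod_injective]
    refine ⟨subtype_injective _, subtype_injective _, ?_⟩
    rw [Subgroup.range_subtype, Subgroup.range_subtype, disjoint_iff]
    exact hdis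
  have h1 := Subgroup.card_subgroup_dvd_card (MonoidHom.noncommCoprod E.subtype (E.map τ.toMonoidHom).subtype hcm).range
  rw [← Nat.card_congr (MonoidHom.ofInjective hinj).toEquiv, Nat.card_prod,
    Subgroup.card_map_of_injective τ.injective] at h1
  rw [pow_two]
  exact (Nat.mul_dvd_mul hpE hpE).trans h1

/-- elementary abelian `p`-subgroups, crude bound -/
theorem ncard_SE_le' {B : Type*} [Group B] [Finite B] {p v : ℕ} (hp : p.Prime) (hv : (Nat.card B).factorization p = v) :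
    (SE B p).ncard ≤ gal p v * (Nat.card B / p) := by
  have h1 := ncard_elab_class_le (B := B) hp (c := Nat.card B / p)
  rw [hv] at h1
  refine le_trans (Set.ncard_le_ncard ?_ (Set.toFinite _)) h1
  rintro X ⟨hX, hne⟩
  refine ⟨hX, hne, ?_⟩
  rw [Nat.le_div_iff_mul_le hp.pos, mul_comm]
  have h2 := (normalizer (X : Set B)).card_mul_index
  rw [← h2]
  apply Nat.mul_le_mul_right
  obtain ⟨y, hy1⟩ := Subgroup.ne_bot_iff_exists_ne_one.1 hne
  have : Fact p.Prime := ⟨hp⟩
  have hy : orderOf (y : B) = p := orderOf_eq_prime (hX.exp _ y.2) fun e => hy1 (Subtype.ext e)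
  have h3 : zpowers (y : B) ≤ normalizer (X : Set B) := by
    rw [zpowers_le]
    exact le_normalizer y.2
  have h4 := Nat.le_of_dvd Nat.card_pos (Subgroup.card_dvd_of_le h3)
  rwa [Nat.card_zpowers, hy] at h4

/-- elementary abelian subgroups, when those of one Sylow subgroup lie in a small subgroup -/
theorem ncard_SE_le_sylow {B : Type*} [Group B] [Finite B] {p k : ℕ} [hp : Fact p.Prime] (S : Sylow p B)
    {W : Subgroup B} (hW : Nat.card W = p ^ k) (hSW : ∀ x ∈ (S : Subgroup B), x ^ p = 1 → x ∈ W) :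
    (SE B p).ncard ≤ gal p k * (Nat.card B / Nat.card (S : Subgroup B)) := by
  classical
  have hidx : (normalizer ((S : Subgroup B) : Set B)).index ≤ Nat.card B / Nat.card (S : Subgroup B) := by
    rw [Nat.le_div_iff_mul_le Nat.card_pos, ← (normalizer ((S : Subgroup B) : Set B)).index_mul_card]
    apply Nat.mul_le_mul_left
    exact Nat.le_of_dvd Nat.card_pos (Subgroup.card_dvd_of_le le_normalizer)
  have hT : Nat.card (Sylow p B) ≤ Nat.card B / Nat.card (S : Subgroup B) := by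
    rw [S.card_eq_index_normalizer]
    exact hidx
  have hfin : Finite (Sylow p B) := inferInstance
  have := Fintype.ofFinite (Sylow p B)
  -- all Sylow subgroups
  have hall : ∀ T : Sylow p B, {X : Subgroup B | X ≤ (T : Subgroup B) ∧ ElAb p X ∧ X ≠ ⊥}.ncard ≤ gal p k := by
    intro T
    obtain ⟨g, hg⟩ := MulAction.exists_smul_eq B T S
    refine le_trans ?_ (ncard_elab_le hp.out hW)
    refine Set.ncard_le_ncard_of_injOn (fun X : Subgroup B => X.map (MulAut.conj g).toMonoidHom) ?_ ?_ (Set.toFinite _)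
    · rintro X ⟨h1, h2, h3⟩
      refine ⟨?_, ⟨?_, ?_⟩, ?_⟩
      · rintro _ ⟨x, hx, rfl⟩
        apply hSW
        · rw [← hg, Sylow.coe_subgroup_smul]
          exact Subgroup.smul_mem_pointwise_smul _ _ _ (h1 hx)
        · rw [← map_pow, h2.exp x hx, map_one]
      · rintro _ ⟨a, ha, rfl⟩ _ ⟨b, hb, rfl⟩
        rw [← map_mul, ← map_mul, h2.comm a ha b hb]
      · rintro _ ⟨a, ha, rfl⟩
        rw [← map_pow, h2.exp a ha, map_one]
      · intro e
        rw [Subgroup.map_eq_bot_iff_of_injective _ (MulAut.conj g).injective] at e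
        exact h3 e
    · intro X _ Y _ e
      exact Subgroup.map_injective (MulAut.conj g).injective e
  have hsub : SE B p ⊆ ⋃ T ∈ (Finset.univ : Finset (Sylow p B)), {X : Subgroup B | X ≤ (T : Subgroup B) ∧ ElAb p X ∧ X ≠ ⊥} := by
    rintro X ⟨h1, h2⟩
    have hps : IsPGroup p X := by
      rintro ⟨y, hy⟩
      refine ⟨1, Subtype.ext ?_⟩
      rw [pow_one]
      exact h1.exp y hy
    obtain ⟨T, hT⟩ := hps.exists_le_sylow
    simp only [Finset.mem_univ, Set.iUnion_true, Set.mem_iUnion]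
    exact ⟨T, hT, h1, h2⟩
  refine (Set.ncard_le_ncard hsub (Set.toFinite _)).trans ((ncard_biUnion_le' _ _).trans
    ((Finset.sum_le_card_nsmul _ _ _ fun T _ => hall T).trans ?_))
  rw [smul_eq_mul, Finset.card_univ, ← Nat.card_eq_fintype_card, mul_comm]
  exact Nat.mul_le_mul_left _ hT

end Cfsg.Agent.H775.EPS
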